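import Cfsg.Agent.Lib.Helper17.E8I.DefsE
import Cfsg.Agent.Lib.Helper88.E8I.F1

set_option autoImplicit false
set_option linter.unusedSimpArgs false

/-! # E8I piece C5 (helper23 for helper17's farm): the fusion 4A1 -> 3A1 with spectators
(the base case is helper17's script-generated proof `E6I/E9.lean` transported to `E8`). -/

namespace Cfsg.Agent.Lib.Helper23.E8I

open Cfsg.Lie Cfsg.Agent.Lib.Helper18 Cfsg.Agent.Lib.Helper17 Cfsg.Agent.Lib.Helper36
  Cfsg.Agent.Lib.Helper6 Matrix Cfsg.Agent.Lib.Helper17.E8I Cfsg.Agent.Lib.Helper88.E8I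

variable {F : Type*} [Field F] (hB : Base chevE8 F)

set_option maxHeartbeats 1000000 in
theorem C5_base [CharP F 2] : ∃ g : GL chevE8.Idx F,
    g = hB.xg 131 1 * hB.xg 142 1 * hB.xg 147 1 * hB.xg 136 1 ∧ g ∈ chevE8.group F ∧
    g * CG.lp hB [135, 152, 126, 141] (fun _ => 1) * g⁻¹ = CG.lp hB [135, 141, 126] (fun _ => 1) := by
  obtain ⟨x, hx⟩ : ∃ x : ℕ → GL chevE8.Idx F, x = fun k => hB.xg k 1 := ⟨_, rfl⟩
  have sw0 : ∀ r s : ℕ, 120 ≤ r → r < 240 → 120 ≤ s → s < 240 → e8add r s = none →
      ∀ z, x r * (x s * z) = x s * (x r * z) := by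
    intro r s h1 h2 h3 h4 h z
    rw [hx, ← mul_assoc, ← mul_assoc]
    beta_reduce
    rw [e8_comm_none hB r s h1 h2 h3 h4 h 1 1]
  have sw1 : ∀ r s k : ℕ, 120 ≤ r → r < 240 → 120 ≤ s → s < 240 → e8add r s = some k →
      ∀ z, x r * (x s * z) = x s * (x k * (x r * z)) := by
    intro r s k h1 h2 h3 h4 h z
    have := e8_conj_some hB r s k h1 h2 h3 h4 h 1 1
    rw [mul_one] at this
    rw [hx]
    beta_reduce
    calc hB.xg r 1 * (hB.xg s 1 * z) = (hB.xg r 1 * hB.xg s 1 * (hB.xg r 1)⁻¹) * (hB.xg r 1 * z) := by group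
      _ = _ := by rw [this]; group
  have sq : ∀ r z, x r * (x r * z) = z := by
    intro r z
    rw [hx, ← mul_assoc]
    beta_reduce
    rw [hB.xg_add, CharTwo.add_self_eq_zero, hB.xg_zero, one_mul]
  have w131_126 : ∀ z, x 131 * (x 126 * z) = x 126 * (x 131 * z) := sw0 131 126 (by norm_num) (by norm_num) (by norm_num) (by norm_num) (by decide +kernel)
  have w135_126 : ∀ z, x 135 * (x 126 * z) = x 126 * (x 135 * z) := sw0 135 126 (by norm_num) (by norm_num) (by norm_num) (by norm_num) (by decide +kernel)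
  have w135_131 : ∀ z, x 135 * (x 131 * z) = x 131 * (x 137 * (x 135 * z)) := sw1 135 131 137 (by norm_num) (by norm_num) (by norm_num) (by norm_num) (by decide +kernel)
  have w136_126 : ∀ z, x 136 * (x 126 * z) = x 126 * (x 137 * (x 136 * z)) := sw1 136 126 137 (by norm_num) (by norm_num) (by norm_num) (by norm_num) (by decide +kernel)
  have w136_131 : ∀ z, x 136 * (x 131 * z) = x 131 * (x 136 * z) := sw0 136 131 (by norm_num) (by norm_num) (by norm_num) (by norm_num) (by decide +kernel)
  have w136_135 : ∀ z, x 136 * (x 135 * z) = x 135 * (x 136 * z) := sw0 136 135 (by norm_num) (by norm_num) (by norm_num) (by norm_num) (by decide +kernel)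
  have w137_126 : ∀ z, x 137 * (x 126 * z) = x 126 * (x 137 * z) := sw0 137 126 (by norm_num) (by norm_num) (by norm_num) (by norm_num) (by decide +kernel)
  have w137_131 : ∀ z, x 137 * (x 131 * z) = x 131 * (x 137 * z) := sw0 137 131 (by norm_num) (by norm_num) (by norm_num) (by norm_num) (by decide +kernel)
  have w137_135 : ∀ z, x 137 * (x 135 * z) = x 135 * (x 137 * z) := sw0 137 135 (by norm_num) (by norm_num) (by norm_num) (by norm_num) (by decide +kernel)
  have w137_136 : ∀ z, x 137 * (x 136 * z) = x 136 * (x 137 * z) := sw0 137 136 (by norm_num) (by norm_num) (by norm_num) (by norm_num) (by decide +kernel)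
  have w141_126 : ∀ z, x 141 * (x 126 * z) = x 126 * (x 141 * z) := sw0 141 126 (by norm_num) (by norm_num) (by norm_num) (by norm_num) (by decide +kernel)
  have w141_131 : ∀ z, x 141 * (x 131 * z) = x 131 * (x 143 * (x 141 * z)) := sw1 141 131 143 (by norm_num) (by norm_num) (by norm_num) (by norm_num) (by decide +kernel)
  have w141_135 : ∀ z, x 141 * (x 135 * z) = x 135 * (x 141 * z) := sw0 141 135 (by norm_num) (by norm_num) (by norm_num) (by norm_num) (by decide +kernel)
  have w141_136 : ∀ z, x 141 * (x 136 * z) = x 136 * (x 147 * (x 141 * z)) := sw1 141 136 147 (by norm_num) (by norm_num) (by norm_num) (by norm_num) (by decide +kernel)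
  have w141_137 : ∀ z, x 141 * (x 137 * z) = x 137 * (x 148 * (x 141 * z)) := sw1 141 137 148 (by norm_num) (by norm_num) (by norm_num) (by norm_num) (by decide +kernel)
  have w142_126 : ∀ z, x 142 * (x 126 * z) = x 126 * (x 143 * (x 142 * z)) := sw1 142 126 143 (by norm_num) (by norm_num) (by norm_num) (by norm_num) (by decide +kernel)
  have w142_131 : ∀ z, x 142 * (x 131 * z) = x 131 * (x 142 * z) := sw0 142 131 (by norm_num) (by norm_num) (by norm_num) (by norm_num) (by decide +kernel)
  have w142_135 : ∀ z, x 142 * (x 135 * z) = x 135 * (x 147 * (x 142 * z)) := sw1 142 135 147 (by norm_num) (by norm_num) (by norm_num) (by norm_num) (by decide +kernel)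
  have w142_136 : ∀ z, x 142 * (x 136 * z) = x 136 * (x 142 * z) := sw0 142 136 (by norm_num) (by norm_num) (by norm_num) (by norm_num) (by decide +kernel)
  have w142_137 : ∀ z, x 142 * (x 137 * z) = x 137 * (x 152 * (x 142 * z)) := sw1 142 137 152 (by norm_num) (by norm_num) (by norm_num) (by norm_num) (by decide +kernel)
  have w142_141 : ∀ z, x 142 * (x 141 * z) = x 141 * (x 142 * z) := sw0 142 141 (by norm_num) (by norm_num) (by norm_num) (by norm_num) (by decide +kernel)
  have w143_126 : ∀ z, x 143 * (x 126 * z) = x 126 * (x 143 * z) := sw0 143 126 (by norm_num) (by norm_num) (by norm_num) (by norm_num) (by decide +kernel)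
  have w143_131 : ∀ z, x 143 * (x 131 * z) = x 131 * (x 143 * z) := sw0 143 131 (by norm_num) (by norm_num) (by norm_num) (by norm_num) (by decide +kernel)
  have w143_135 : ∀ z, x 143 * (x 135 * z) = x 135 * (x 148 * (x 143 * z)) := sw1 143 135 148 (by norm_num) (by norm_num) (by norm_num) (by norm_num) (by decide +kernel)
  have w143_136 : ∀ z, x 143 * (x 136 * z) = x 136 * (x 152 * (x 143 * z)) := sw1 143 136 152 (by norm_num) (by norm_num) (by norm_num) (by norm_num) (by decide +kernel)
  have w143_137 : ∀ z, x 143 * (x 137 * z) = x 137 * (x 143 * z) := sw0 143 137 (by norm_num) (by norm_num) (by norm_num) (by norm_num) (by decide +kernel)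
  have w143_141 : ∀ z, x 143 * (x 141 * z) = x 141 * (x 143 * z) := sw0 143 141 (by norm_num) (by norm_num) (by norm_num) (by norm_num) (by decide +kernel)
  have w143_142 : ∀ z, x 143 * (x 142 * z) = x 142 * (x 143 * z) := sw0 143 142 (by norm_num) (by norm_num) (by norm_num) (by norm_num) (by decide +kernel)
  have w147_126 : ∀ z, x 147 * (x 126 * z) = x 126 * (x 148 * (x 147 * z)) := sw1 147 126 148 (by norm_num) (by norm_num) (by norm_num) (by norm_num) (by decide +kernel)
  have w147_131 : ∀ z, x 147 * (x 131 * z) = x 131 * (x 152 * (x 147 * z)) := sw1 147 131 152 (by norm_num) (by norm_num) (by norm_num) (by norm_num) (by decide +kernel)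
  have w147_135 : ∀ z, x 147 * (x 135 * z) = x 135 * (x 147 * z) := sw0 147 135 (by norm_num) (by norm_num) (by norm_num) (by norm_num) (by decide +kernel)
  have w147_136 : ∀ z, x 147 * (x 136 * z) = x 136 * (x 147 * z) := sw0 147 136 (by norm_num) (by norm_num) (by norm_num) (by norm_num) (by decide +kernel)
  have w147_137 : ∀ z, x 147 * (x 137 * z) = x 137 * (x 147 * z) := sw0 147 137 (by norm_num) (by norm_num) (by norm_num) (by norm_num) (by decide +kernel)
  have w147_141 : ∀ z, x 147 * (x 141 * z) = x 141 * (x 147 * z) := sw0 147 141 (by norm_num) (by norm_num) (by norm_num) (by norm_num) (by decide +kernel)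
  have w147_142 : ∀ z, x 147 * (x 142 * z) = x 142 * (x 147 * z) := sw0 147 142 (by norm_num) (by norm_num) (by norm_num) (by norm_num) (by decide +kernel)
  have w147_143 : ∀ z, x 147 * (x 143 * z) = x 143 * (x 147 * z) := sw0 147 143 (by norm_num) (by norm_num) (by norm_num) (by norm_num) (by decide +kernel)
  have w148_126 : ∀ z, x 148 * (x 126 * z) = x 126 * (x 148 * z) := sw0 148 126 (by norm_num) (by norm_num) (by norm_num) (by norm_num) (by decide +kernel)
  have w148_131 : ∀ z, x 148 * (x 131 * z) = x 131 * (x 148 * z) := sw0 148 131 (by norm_num) (by norm_num) (by norm_num) (by norm_num) (by decide +kernel)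
  have w148_135 : ∀ z, x 148 * (x 135 * z) = x 135 * (x 148 * z) := sw0 148 135 (by norm_num) (by norm_num) (by norm_num) (by norm_num) (by decide +kernel)
  have w148_136 : ∀ z, x 148 * (x 136 * z) = x 136 * (x 148 * z) := sw0 148 136 (by norm_num) (by norm_num) (by norm_num) (by norm_num) (by decide +kernel)
  have w148_137 : ∀ z, x 148 * (x 137 * z) = x 137 * (x 148 * z) := sw0 148 137 (by norm_num) (by norm_num) (by norm_num) (by norm_num) (by decide +kernel)
  have w148_141 : ∀ z, x 148 * (x 141 * z) = x 141 * (x 148 * z) := sw0 148 141 (by norm_num) (by norm_num) (by norm_num) (by norm_num) (by decide +kernel)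
  have w148_142 : ∀ z, x 148 * (x 142 * z) = x 142 * (x 148 * z) := sw0 148 142 (by norm_num) (by norm_num) (by norm_num) (by norm_num) (by decide +kernel)
  have w148_143 : ∀ z, x 148 * (x 143 * z) = x 143 * (x 148 * z) := sw0 148 143 (by norm_num) (by norm_num) (by norm_num) (by norm_num) (by decide +kernel)
  have w148_147 : ∀ z, x 148 * (x 147 * z) = x 147 * (x 148 * z) := sw0 148 147 (by norm_num) (by norm_num) (by norm_num) (by norm_num) (by decide +kernel)
  have w152_126 : ∀ z, x 152 * (x 126 * z) = x 126 * (x 152 * z) := sw0 152 126 (by norm_num) (by norm_num) (by norm_num) (by norm_num) (by decide +kernel)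
  have w152_131 : ∀ z, x 152 * (x 131 * z) = x 131 * (x 152 * z) := sw0 152 131 (by norm_num) (by norm_num) (by norm_num) (by norm_num) (by decide +kernel)
  have w152_135 : ∀ z, x 152 * (x 135 * z) = x 135 * (x 152 * z) := sw0 152 135 (by norm_num) (by norm_num) (by norm_num) (by norm_num) (by decide +kernel)
  have w152_136 : ∀ z, x 152 * (x 136 * z) = x 136 * (x 152 * z) := sw0 152 136 (by norm_num) (by norm_num) (by norm_num) (by norm_num) (by decide +kernel)
  have w152_137 : ∀ z, x 152 * (x 137 * z) = x 137 * (x 152 * z) := sw0 152 137 (by norm_num) (by norm_num) (by norm_num) (by norm_num) (by decide +kernel)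
  have w152_141 : ∀ z, x 152 * (x 141 * z) = x 141 * (x 152 * z) := sw0 152 141 (by norm_num) (by norm_num) (by norm_num) (by norm_num) (by decide +kernel)
  have w152_142 : ∀ z, x 152 * (x 142 * z) = x 142 * (x 152 * z) := sw0 152 142 (by norm_num) (by norm_num) (by norm_num) (by norm_num) (by decide +kernel)
  have w152_143 : ∀ z, x 152 * (x 143 * z) = x 143 * (x 152 * z) := sw0 152 143 (by norm_num) (by norm_num) (by norm_num) (by norm_num) (by decide +kernel)
  have w152_147 : ∀ z, x 152 * (x 147 * z) = x 147 * (x 152 * z) := sw0 152 147 (by norm_num) (by norm_num) (by norm_num) (by norm_num) (by decide +kernel)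
  have w152_148 : ∀ z, x 152 * (x 148 * z) = x 148 * (x 152 * z) := sw0 152 148 (by norm_num) (by norm_num) (by norm_num) (by norm_num) (by decide +kernel)
  refine ⟨x 131 * x 142 * x 147 * x 136, ?_, ?_, ?_⟩
  · rw [hx]
  · rw [hx]
    exact mul_mem (mul_mem (mul_mem (hB.xg_mem_group (by decide +kernel) 1) (hB.xg_mem_group (by decide +kernel) 1))
      (hB.xg_mem_group (by decide +kernel) 1)) (hB.xg_mem_group (by decide +kernel) 1)
  · have e1 : CG.lp hB [135, 152, 126, 141] (fun _ => (1 : F)) = x 135 * (x 152 * (x 126 * (x 141 * 1))) := by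
      rw [hx]; simp [CG.lp]
    have e2 : CG.lp hB [135, 141, 126] (fun _ => (1 : F)) = x 135 * (x 141 * (x 126 * 1)) := by
      rw [hx]; simp [CG.lp]
    rw [e1, e2, mul_inv_eq_iff_eq_mul]
    have l : x 131 * x 142 * x 147 * x 136 * (x 135 * (x 152 * (x 126 * (x 141 * 1)))) =
        x 131 * (x 142 * (x 147 * (x 136 * (x 135 * (x 152 * (x 126 * (x 141 * 1))))))) := by
      simp only [mul_assoc]
    have r : x 135 * (x 141 * (x 126 * 1)) * (x 131 * x 142 * x 147 * x 136) =
        x 135 * (x 141 * (x 126 * (x 131 * (x 142 * (x 147 * (x 136 * 1)))))) := by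
      simp only [mul_assoc, mul_one, one_mul]
    rw [l, r]
    simp only [sq, w131_126, w135_126, w135_131, w136_126, w136_131, w136_135, w137_126, w137_131, w137_135, w137_136, w141_126, w141_131, w141_135, w141_136, w141_137, w142_126, w142_131, w142_135, w142_136, w142_137, w142_141, w143_126, w143_131, w143_135, w143_136, w143_137, w143_141, w143_142, w147_126, w147_131, w147_135, w147_136, w147_137, w147_141, w147_142, w147_143, w148_126, w148_131, w148_135, w148_136, w148_137, w148_141, w148_142, w148_143, w148_147, w152_126, w152_131, w152_135, w152_136, w152_137, w152_141, w152_142, w152_143, w152_147, w152_148]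


def C5_ok (r o : ℕ) : Bool :=
  decide (o = r) || (decide (o ≠ r) && decide (o ≠ chevE8.neg r) && decide (chevE8.commTerms r o = []))

set_option maxRecDepth 100000 in
theorem C5_tab : ((List.range 240).all fun o => decide (chevE8.pairing 135 o ≠ 0) ||
    decide (chevE8.pairing 152 o ≠ 0) || decide (chevE8.pairing 126 o ≠ 0) ||
    decide (chevE8.pairing 141 o ≠ 0) ||
    (C5_ok 131 o && C5_ok 142 o && C5_ok 147 o && C5_ok 136 o)) = true := by
  decide +kernel

theorem C5_comm_of_ok {r o : ℕ} (hr : r < 240) (ho : o < 240) (h : C5_ok r o = true) :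
    hB.xg r 1 * hB.xg o 1 = hB.xg o 1 * hB.xg r 1 := by
  apply CG.comm_dvd hB (m := 0) (by simp) hr ho
  unfold C5_ok at h
  simp only [Bool.or_eq_true, Bool.and_eq_true, decide_eq_true_eq] at h
  rcases h with h | ⟨⟨h1, h2⟩, h3⟩
  · exact Or.inl h
  · refine Or.inr ⟨h1, h2, ?_⟩
    intro c hc
    rw [h3] at hc
    simp at hc

theorem C5_comm {o : ℕ} (ho : o < 240) (h1 : e8orth 135 o) (h2 : e8orth 152 o) (h3 : e8orth 126 o)
    (h4 : e8orth 141 o) :
    (hB.xg 131 1 * hB.xg 142 1 * hB.xg 147 1 * hB.xg 136 1) * hB.xg o 1 =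
      hB.xg o 1 * (hB.xg 131 1 * hB.xg 142 1 * hB.xg 147 1 * hB.xg 136 1) := by
  have h := List.all_eq_true.1 C5_tab o (List.mem_range.2 ho)
  unfold e8orth at h1 h2 h3 h4
  simp only [h1, h2, h3, h4, ne_eq, not_true_eq_false, decide_false, Bool.false_or, Bool.or_false,
    Bool.and_eq_true] at h
  obtain ⟨⟨⟨a1, a2⟩, a3⟩, a4⟩ := h
  have c1 := C5_comm_of_ok hB (by norm_num) ho a1
  have c2 := C5_comm_of_ok hB (by norm_num) ho a2
  have c3 := C5_comm_of_ok hB (by norm_num) ho a3
  have c4 := C5_comm_of_ok hB (by norm_num) ho a4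
  calc hB.xg 131 1 * hB.xg 142 1 * hB.xg 147 1 * hB.xg 136 1 * hB.xg o 1
      = hB.xg 131 1 * hB.xg 142 1 * hB.xg 147 1 * (hB.xg 136 1 * hB.xg o 1) := by group
    _ = hB.xg 131 1 * hB.xg 142 1 * (hB.xg 147 1 * hB.xg o 1) * hB.xg 136 1 := by rw [c4]; group
    _ = hB.xg 131 1 * (hB.xg 142 1 * hB.xg o 1) * hB.xg 147 1 * hB.xg 136 1 := by rw [c3]; group
    _ = (hB.xg 131 1 * hB.xg o 1) * hB.xg 142 1 * hB.xg 147 1 * hB.xg 136 1 := by rw [c2]; group
    _ = _ := by rw [c1]; group

theorem C5_comm_lp (g : GL chevE8.Idx F) (O : List ℕ) (h : ∀ o ∈ O, g * hB.xg o 1 = hB.xg o 1 * g) :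
    g * CG.lp hB O (fun _ => 1) = CG.lp hB O (fun _ => 1) * g := by
  induction O with
  | nil => simp
  | cons o O ih =>
    rw [CG.lp_cons, ← mul_assoc, h o (by simp), mul_assoc, ih (fun o' ho' => h o' (by simp [ho'])),
      mul_assoc]

/-- [C5] fusion with spectators. -/
theorem fusion8 [CharP F 2] (O' : List ℕ) (h : OL (135 :: 152 :: 126 :: 141 :: O')) : ∃ g ∈ chevE8.group F,
    g * CG.lp hB (135 :: 152 :: 126 :: 141 :: O') (fun _ => 1) * g⁻¹ =
      CG.lp hB (135 :: 141 :: 126 :: O') (fun _ => 1) := by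
  obtain ⟨g, hg, hgm, hgc⟩ := C5_base hB
  refine ⟨g, hgm, ?_⟩
  obtain ⟨hp, hb⟩ := h
  simp only [List.pairwise_cons] at hp
  obtain ⟨p1, p2, p3, p4, -⟩ := hp
  have hcomm : g * CG.lp hB O' (fun _ => 1) = CG.lp hB O' (fun _ => 1) * g := by
    apply C5_comm_lp
    intro o ho
    rw [hg]
    exact C5_comm hB (hb o (by simp [ho])) (p1 o (by simp [ho])) (p2 o (by simp [ho]))
      (p3 o (by simp [ho])) (p4 o ho)
  have e1 : CG.lp hB (135 :: 152 :: 126 :: 141 :: O') (fun _ => (1 : F)) =
      CG.lp hB [135, 152, 126, 141] (fun _ => 1) * CG.lp hB O' (fun _ => 1) := by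
    simp only [CG.lp_cons, CG.lp_nil, mul_one, mul_assoc]
  have e2 : CG.lp hB (135 :: 141 :: 126 :: O') (fun _ => (1 : F)) =
      CG.lp hB [135, 141, 126] (fun _ => 1) * CG.lp hB O' (fun _ => 1) := by
    simp only [CG.lp_cons, CG.lp_nil, mul_one, mul_assoc]
  rw [e1, e2, ← hgc]
  have h' : CG.lp hB O' (fun _ => (1 : F)) * g⁻¹ = g⁻¹ * CG.lp hB O' (fun _ => 1) := by
    have := congrArg (fun t => g⁻¹ * t * g⁻¹) hcomm
    simpa [mul_assoc] using this
  calc g * (CG.lp hB [135, 152, 126, 141] (fun _ => 1) * CG.lp hB O' (fun _ => 1)) * g⁻¹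
      = g * CG.lp hB [135, 152, 126, 141] (fun _ => 1) * (CG.lp hB O' (fun _ => 1) * g⁻¹) := by
        simp only [mul_assoc]
    _ = g * CG.lp hB [135, 152, 126, 141] (fun _ => 1) * (g⁻¹ * CG.lp hB O' (fun _ => 1)) := by rw [h']
    _ = _ := by simp only [mul_assoc]

end Cfsg.Agent.Lib.Helper23.E8I
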